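/-
helper40: the centraliser of the generator `a` of the presented group Fi22 is a non-split double cover
of `PSU(6, 2)`.
-/
import Cfsg.Agent.Lib.Helper40.U6.Beta
import Cfsg.Agent.Lib.Helper40.Fi.F22Main
import Cfsg.Agent.Lib.Helper40.PresEquiv
import Cfsg.Agent.S0280
import Cfsg.Agent.S0283

set_option autoImplicit false
set_option maxRecDepth 100000

namespace Cfsg.Agent.Lib.Helper40.U6

open Cfsg.Agent.Lib.Helper40.PE Cfsg.Agent.Lib.Helper5 Matrix

/-- the target group -/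
abbrev T : Type := Cfsg.PSU 6 K4 2

theorem card_T : Nat.card T = 9196830720 := by
  have h := Cfsg.Agent.S0280.result (F := K4) (q := 2) K4.card_eq' 6 (by norm_num)
  have e : (2 : ℕ) ^ (6 * (6 - 1) / 2) * ∏ i ∈ Finset.range 6,
      (if Even i then 2 ^ (i + 1) + 1 else 2 ^ (i + 1) - 1) = 82771476480 := by decide +kernel
  rw [e] at h
  have g : Nat.gcd 6 (2 + 1) = 3 := by decide
  rw [g] at h
  generalize Nat.card (Cfsg.PSU 6 K4 2) = c at h ⊢
  omega

instance simple_T : IsSimpleGroup T :=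
  Cfsg.Agent.S0283.result (F := K4) (q := 2) K4.card_eq' 6 (by norm_num) (by norm_num)

theorem fin_T : Finite T := Nat.finite_of_card_ne_zero (by rw [card_T]; norm_num)

theorem center_T : ∀ z : T, (∀ g, g * z = z * g) → z = 1 := by
  intro z hz
  have hzc : z ∈ Subgroup.center T := Subgroup.mem_center_iff.mpr hz
  rcases (inferInstance : (Subgroup.center T).Normal).eq_bot_or_eq_top with h | h
  · rw [h] at hzc; exact Subgroup.mem_bot.mp hzc
  · exfalso
    have hcomm : ∀ a b : T, a * b = b * a := by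
      intro a b
      have : b ∈ Subgroup.center T := by rw [h]; trivial
      exact Subgroup.mem_center_iff.mp this a
    letI : CommGroup T := { (inferInstance : Group T) with mul_comm := hcomm }
    haveI := fin_T
    have hp := IsSimpleGroup.prime_card (α := T)
    rw [card_T] at hp
    norm_num at hp

/-- the pairs (generator, product of transvections) -/
def S : Set (Cfsg.Spor.Fi22 × Cfsg.SU 6 K4 2) := {p | ∃ e ∈ pairs, p = (wp F22.s e.1, tl e.2)}

theorem H_eq_closure : F22M.H = Subgroup.closure (Prod.fst '' S) := by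
  unfold F22M.H Hs
  congr 1
  ext g
  constructor
  · rintro ⟨w, hw, rfl⟩
    rw [← pairs_fst, List.mem_map] at hw
    obtain ⟨e, he, rfl⟩ := hw
    exact ⟨_, ⟨e, he, rfl⟩, rfl⟩
  · rintro ⟨_, ⟨e, he, rfl⟩, rfl⟩
    exact ⟨e.1, by rw [← pairs_fst]; exact List.mem_map_of_mem he, rfl⟩

theorem bq_mem {q : ℕ} (h1 : 2817 ≤ q) (h2 : q < 3510) : tb.getD (q - 2817) 0 ∈ tb := by
  rw [List.getD_eq_getElem _ _ (by rw [tb_length]; omega)]
  exact List.getElem_mem _

theorem bq_inj : ∀ q ∈ Set.Ico 2817 3510, ∀ q' ∈ Set.Ico 2817 3510, ∀ c : K4, c ≠ 0 →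
    bq q = c • bq q' → q = q' := by
  rintro q ⟨h1, h2⟩ q' ⟨h1', h2'⟩ c - h
  have m := tb_nrm _ (bq_mem h1 h2)
  have m' := tb_nrm _ (bq_mem h1' h2')
  have e := eq_of_nrm m.1 m'.1 c h
  have e2 : tb.getD (q - 2817) 0 = tb.getD (q' - 2817) 0 := by rw [← m.2, ← m'.2, e]
  rw [List.getD_eq_getElem _ _ (by rw [tb_length]; omega),
    List.getD_eq_getElem _ _ (by rw [tb_length]; omega)] at e2
  have := (tb_nodup.getElem_inj_iff).mp e2
  omega

theorem bq_ne_zero {q : ℕ} (h1 : 2817 ≤ q) (h2 : q < 3510) : bq q ≠ 0 := by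
  intro h
  have m := (tb_nrm _ (bq_mem h1 h2)).1
  have e : dec (tb.getD (q - 2817) 0) = 0 := h
  rw [e] at m
  revert m
  unfold Nrm
  simp

theorem Z1 : ∀ u : Cfsg.SU 6 K4 2, (∀ q ∈ Set.Ico 2817 3510, ∃ c : K4, c ≠ 0 ∧
    u.1.1 *ᵥ bq q = c • bq q) → u ∈ Subgroup.center (Cfsg.SU 6 K4 2) := by
  intro u hu
  obtain ⟨a, ha⟩ := scalar_of_eigen u.1.1 (by
    intro i j hij c hc
    obtain ⟨m, hm, l, hl, e⟩ := tb_basis i j hij c hc
    obtain ⟨t, ht, rfl⟩ := List.mem_iff_getElem.mp hm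
    rw [tb_length] at ht
    obtain ⟨c', -, e'⟩ := hu (2817 + t) ⟨by omega, by omega⟩
    have e3 : bq (2817 + t) = l • (Pi.single i 1 + c • Pi.single j 1) := by
      rw [← e, bq]
      congr 1
      rw [List.getD_eq_getElem _ _ (by rw [tb_length]; omega)]
      congr 1
      omega
    rw [e3, Matrix.mulVec_smul, smul_comm] at e'
    exact ⟨c', smul_right_injective _ hl e'⟩)
  exact central_of_scalar u a ha

theorem Z2 : ∀ u ∈ Subgroup.center (Cfsg.SU 6 K4 2), ∀ q ∈ Set.Ico 2817 3510, ∃ c : K4, c ≠ 0 ∧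
    u.1.1 *ᵥ bq q = c • bq q := by
  rintro u hu q ⟨h1, h2⟩
  obtain ⟨a, ha⟩ := SU_center_scalar K4.card_eq' u hu
  have e : u.1.1 *ᵥ bq q = a • bq q := by
    rw [ha]
    ext i
    simp [Matrix.scalar_apply, Matrix.mulVec_diagonal]
  refine ⟨a, ?_, e⟩
  rintro rfl
  rw [zero_smul] at e
  have := SU_inv_mulVec_mulVec u (bq q)
  rw [e, Matrix.mulVec_zero] at this
  exact bq_ne_zero h1 h2 this.symm

theorem hS {ρ : Cfsg.Spor.Fi22 →* Equiv.Perm ℕ}
    (hρ : ∀ k < F22P3510.P.A, ρ (F22.s k) = PTab.sig F22M.good3510 k) :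
    ∀ p ∈ S, Comp (F := K4) ρ (fun (u : Cfsg.SU 6 K4 2) x => u.1.1 *ᵥ x) (Set.Ico 2817 3510) bq
      p.1 p.2 := by
  rintro _ ⟨e, he, rfl⟩ q ⟨h1, h2⟩
  have hw : ∀ k ∈ e.1, k < F22P3510.P.A :=
    F22M.hSw e.1 (by rw [← pairs_fst]; exact List.mem_map_of_mem he)
  have h3 := allB_iff.mp (chk_all e he) (q - 2817) (by omega)
  have e1 : Nat.add 2817 (q - 2817) = q := by show 2817 + (q - 2817) = q; omega
  simp only [chk, force_eq, e1, orB_iff, beq_iff'] at h3
  show ∃ c : K4, c ≠ 0 ∧ (tl e.2).1.1 *ᵥ bq q = c • bq (ρ (wp F22.s e.1) q)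
  rw [PTab.rho_wp_apply F22M.good3510 hρ e.1 hw q h2, tl_mulVec _ (pairs_iso e he), bq,
    ← dec_foldr, bq]
  rcases h3 with h | h | h
  · exact ⟨1, one_ne_zero, by rw [h, one_smul]⟩
  · exact ⟨ofN 2, by decide, by rw [h, dec_smc]⟩
  · exact ⟨ofN 3, by decide, by rw [h, dec_smc]⟩

/-- paths from the base point to the points of the generators -/
def pth : ℕ → List ℕ
  | 0 => [5, 0, 8, 5]
  | 1 => [5, 0, 1, 8, 5, 0]
  | 2 => [5, 0, 1, 2, 8, 5, 0, 1]
  | 3 => [5, 0, 1, 3, 8, 5, 0, 1]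
  | 4 => [5, 0, 1, 2, 4, 8, 5, 0, 1, 2]
  | 5 => [5, 8]
  | 6 => [5, 0, 1, 3, 6, 8, 5, 0, 1, 3]
  | 7 => [5, 0, 1, 2, 4, 7, 8, 5, 0, 1, 2, 4]
  | _ => []

/-- the points of the generators -/
def gpt : ℕ → ℕ
  | 0 => 2817 | 1 => 2819 | 2 => 2827 | 3 => 2830 | 4 => 2854 | 5 => 2 | 6 => 2863 | 7 => 2922
  | _ => 0

theorem pth_spec : ∀ l < 9, (∀ k ∈ (pth l).reverse, k < F22P3510.P.A) ∧
    F22P3510.P.walk (pth l).reverse.reverse 0 = gpt l ∧
    (∀ k ∈ [l], k < F22P14080.P.A) ∧ (∀ k ∈ (pth l).reverse ++ 8 :: pth l, k < F22P14080.P.A) ∧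
    allL (fun b => Nat.beq (F22P14080.P.walk [l].reverse b)
      (F22P14080.P.walk ((pth l).reverse ++ 8 :: pth l).reverse b)) F22P14080.base = true := by
  decide +kernel

theorem fix6 : allB (fun x => orB (ltB x 3)
    (bsel (allL (fun l => Nat.beq (F22P3510.P.pe x l) x) [1, 2, 4, 7, 3, 6]) false true)) 3510 = true := by
  decide +kernel

theorem fix2 : ∀ l ∈ [1, 2, 4, 7, 3, 6], F22P3510.P.pe 2 l = 2 := by decide +kernel

theorem central_of_gens {G : Type*} [Group G] {s : ℕ → G} {A : ℕ} (htop : pre s A = ⊤) (z : G)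
    (h : ∀ l < A, z * s l = s l * z) : ∀ g, g * z = z * g := by
  intro g
  have hg : g ∈ pre s A := by rw [htop]; trivial
  unfold pre at hg
  induction hg using Subgroup.closure_induction with
  | mem x hx =>
    obtain ⟨l, hl, rfl⟩ := hx
    exact (h l hl).symm
  | one => simp
  | mul x y _ _ hx hy => rw [mul_assoc, hy, ← mul_assoc, hx, mul_assoc]
  | inv x _ hx =>
    calc x⁻¹ * z = x⁻¹ * (z * x) * x⁻¹ := by group
      _ = x⁻¹ * (x * z) * x⁻¹ := by rw [hx]
      _ = z * x⁻¹ := by group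

/-- the homomorphism onto `PSU(6, 2)` -/
theorem exists_Phi : ∃ Φ : F22M.H →* T, Function.Surjective Φ ∧ Nat.card Φ.ker = 2 := by
  have hfinG := F22M.fin
  obtain ⟨ρ, hρ⟩ := F22.exists_rho (p := F22P3510.P) rfl F22M.good3510
  obtain ⟨hfix, hidx, hinj, hlt, t1, t2, m2⟩ := F22M.act3510 hρ
  obtain ⟨Φ, hΦ⟩ := exists_hom_of_equivariant (F := K4) (ρ := ρ)
    (mv := fun (u : Cfsg.SU 6 K4 2) x => u.1.1 *ᵥ x) (I := Set.Ico 2817 3510) (β := bq)
    (fun a b x => SU_mul_mulVec a b x) (fun x => SU_one_mulVec x)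
    (fun a c x => Matrix.mulVec_smul _ _ _) S F22M.H H_eq_closure (fun h hh q hq => m2 h hh hq)
    (hS hρ) Z1 Z2 bq_inj
  have hstab : ∀ g, ρ g 0 = 0 → g ∈ F22M.H := by
    intro g hg
    have h1 : ev hfix (g : _ ⧸ F22M.H) = ev hfix ((1 : Cfsg.Spor.Fi22) : _ ⧸ F22M.H) := by
      rw [ev_mk, ev_mk, hg]; simp
    have h3 := QuotientGroup.eq.mp (hinj h1).symm
    simpa using h3
  have comm_of_fix : ∀ (k : Cfsg.Spor.Fi22) (l : ℕ), l < 9 → ρ k (gpt l) = gpt l →
      k * F22.s l = F22.s l * k := by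
    intro k l hl hk
    obtain ⟨p1, p2, p3, p4, p5⟩ := pth_spec l hl
    have e1 : ρ (wp F22.s (pth l).reverse) 0 = gpt l := by
      rw [PTab.rho_wp_apply F22M.good3510 hρ _ p1 0 (by decide), p2]
    have e2 : F22.s l = wp F22.s (pth l).reverse * F22.s 8 * (wp F22.s (pth l).reverse)⁻¹ := by
      have := F22M.word_eq [l] ((pth l).reverse ++ 8 :: pth l) p3 p4 p5
      rw [wp_append, wp_cons, wp_cons, wp_nil, mul_one] at this
      rw [this, wp_reverse _ F22.s_inv, inv_inv, mul_assoc]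
    generalize wp F22.s (pth l).reverse = g at e1 e2
    have e3 : g⁻¹ * k * g ∈ F22M.H := hstab _ (by
      rw [map_mul, map_mul, Equiv.Perm.mul_apply, Equiv.Perm.mul_apply, e1, hk, ← e1,
        ← Equiv.Perm.mul_apply, ← map_mul]; simp)
    have e4 := F22M.H_comm _ e3
    rw [e2]
    calc k * (g * F22.s 8 * g⁻¹) = g * ((g⁻¹ * k * g) * F22.s 8) * g⁻¹ := by group
      _ = g * (F22.s 8 * (g⁻¹ * k * g)) * g⁻¹ := by rw [e4]
      _ = _ := by group
  have kfix : ∀ k : F22M.H, Φ k = 1 → ∀ l < 9, l ≠ 5 → k.1 * F22.s l = F22.s l * k.1 := by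
    intro k hk l hl hl5
    apply comm_of_fix k.1 l hl
    by_cases h8 : l = 8
    · subst h8; exact hfix k.1 k.2
    · apply (hΦ k).mp hk (gpt l)
      interval_cases l <;> first | exact absurd rfl hl5 | exact absurd rfl h8 | (constructor <;> decide)
  have kimg : ∀ k : F22M.H, Φ k = 1 → ρ k.1 2 = 1 ∨ ρ k.1 2 = 2 := by
    intro k hk
    have hy : ρ k.1 2 < F22P3510.P.N := PTab.rho_lt F22M.good3510 hρ F22.pre_top k.1 2 (by decide)
    have h6 : allL (fun l => Nat.beq (F22P3510.P.pe (ρ k.1 2) l) (ρ k.1 2)) [1, 2, 4, 7, 3, 6]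
        = true := by
      rw [allL_iff]
      intro l hl
      have hl9 : l < 9 ∧ l ≠ 5 := by
        simp only [List.mem_cons, List.not_mem_nil, or_false] at hl
        omega
      rw [beq_iff', ← PTab.rho_s F22M.good3510 hρ (show l < F22P3510.P.A from hl9.1) hy,
        ← Equiv.Perm.mul_apply, ← map_mul, ← kfix k hk l hl9.1 hl9.2, map_mul,
        Equiv.Perm.mul_apply, PTab.rho_s F22M.good3510 hρ (show l < F22P3510.P.A from hl9.1)
          (by decide), fix2 l hl]
    have h7 := allB_iff.mp fix6 _ hy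
    simp only [h6, bsel_true, orB_iff, ltB_iff] at h7
    have h0 : ρ k.1 2 ≠ 0 := by
      intro h
      have := (ρ k.1).injective (h.trans (hfix k.1 k.2).symm)
      omega
    rcases h7 with h7 | h7
    · omega
    · exact absurd h7 (by simp)
  have kinj : ∀ k k' : F22M.H, Φ k = 1 → Φ k' = 1 → ρ k.1 2 = ρ k'.1 2 → k = k' := by
    intro k k' hk hk' h
    have hj : Φ (k'⁻¹ * k) = 1 := by rw [map_mul, map_inv, hk, hk']; simp
    have h5 : (k'⁻¹ * k).1 * F22.s 5 = F22.s 5 * (k'⁻¹ * k).1 := by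
      apply comm_of_fix _ 5 (by decide)
      show ρ (k'.1⁻¹ * k.1) 2 = 2
      rw [map_mul, Equiv.Perm.mul_apply, h, ← Equiv.Perm.mul_apply, ← map_mul]; simp
    have hz := F22M.center_triv _ (central_of_gens F22.pre_top (k'⁻¹ * k).1 (by
      intro l hl
      by_cases h : l = 5
      · subst h; exact h5
      · exact kfix _ hj l hl h))
    have : k'⁻¹ * k = 1 := Subtype.ext hz
    exact (inv_mul_eq_one.mp this).symm
  have hker : Nat.card Φ.ker ≤ 2 := by
    let f : Φ.ker → ({1, 2} : Set ℕ) := fun k => ⟨ρ k.1.1 2, kimg k.1 k.2⟩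
    have hf : Function.Injective f := by
      intro k k' h
      exact Subtype.ext (kinj k.1 k'.1 k.2 k'.2 (congrArg Subtype.val h))
    have h1 := Nat.card_le_card_of_injective f hf
    have h2 : Nat.card ({1, 2} : Set ℕ) = 2 := by
      rw [Nat.card_coe_set_eq, Set.ncard_pair (by decide)]
    omega
  have hfinT := fin_T
  have h1 : Nat.card Φ.ker * Nat.card Φ.range = 18393661440 := by
    rw [← Subgroup.index_ker, Subgroup.card_mul_index, F22M.card_H]
  have h2 : Nat.card Φ.range ≤ 9196830720 := by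
    rw [← card_T]; exact Subgroup.card_le_card_group _
  have h3 : Nat.card Φ.ker = 2 ∧ Nat.card Φ.range = 9196830720 := by
    generalize Nat.card Φ.ker = a at *
    generalize Nat.card Φ.range = b at *
    interval_cases a <;> omega
  refine ⟨Φ, ?_, h3.1⟩
  rw [← MonoidHom.range_eq_top]
  exact Subgroup.eq_top_of_card_eq _ (by rw [h3.2, card_T])

/-- the generators `a, c, d, e, f, g, h, i, x` of the centraliser as elements of this subgroup -/
abbrev sh : ℕ → F22M.H := sH F22.s F22P3510.Sw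

/-- word identities in the centraliser -/
theorem wordH (w : List ℕ)
    (hw : ∀ k ∈ w.flatMap fun k => F22P3510.Sw.getD k [], k < F22P14080.P.A)
    (hchk : allL (fun b => Nat.beq
      (F22P14080.P.walk (w.flatMap fun k => F22P3510.Sw.getD k []).reverse b)
      (F22P14080.P.walk ([] : List ℕ).reverse b)) F22P14080.base = true) : wp sh w = 1 := by
  apply Subtype.ext
  rw [coe_wp_sH]
  exact F22M.word_eq _ [] hw (by simp) hchk

theorem sh_inv : ∀ k < 9, sh k * sh k = 1 := by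
  have key : ∀ k < 9, (∀ j ∈ [k, k].flatMap fun k => F22P3510.Sw.getD k [], j < F22P14080.P.A) ∧
      allL (fun b => Nat.beq
      (F22P14080.P.walk ([k, k].flatMap fun k => F22P3510.Sw.getD k []).reverse b)
      (F22P14080.P.walk ([] : List ℕ).reverse b)) F22P14080.base = true := by decide +kernel
  intro k hk
  have := wordH [k, k] (key k hk).1 (key k hk).2
  simpa using this

theorem sh_braid : ∀ e ∈ [(1, 2), (2, 3), (2, 6), (3, 4), (4, 5), (6, 7), (4, 8)],
    (sh e.1 * sh e.2) ^ 3 = 1 := by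
  have key : ∀ e ∈ [(1, 2), (2, 3), (2, 6), (3, 4), (4, 5), (6, 7), (4, 8)],
      (∀ j ∈ (List.replicate 3 [e.1, e.2]).flatten.flatMap fun k => F22P3510.Sw.getD k [],
        j < F22P14080.P.A) ∧
      allL (fun b => Nat.beq
      (F22P14080.P.walk ((List.replicate 3 [e.1, e.2]).flatten.flatMap
        fun k => F22P3510.Sw.getD k []).reverse b)
      (F22P14080.P.walk ([] : List ℕ).reverse b)) F22P14080.base = true := by decide +kernel
  intro e he
  have := wordH _ (key e he).1 (key e he).2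
  rw [wp_flatten_replicate] at this
  simpa using this

theorem sh_e7 : wp sh (List.replicate 9 [1, 2, 3, 6, 4, 7, 5]).flatten = 1 :=
  wordH _ (by decide +kernel) (by decide +kernel)

theorem sh_y : wp sh ((List.replicate 5 [8, 2, 3, 7, 1, 6]).flatten ++ [0]) = 1 :=
  wordH _ (by decide +kernel) (by decide +kernel)

theorem perfect_H : commutator F22M.H = ⊤ := by
  have ab : ∀ e ∈ [(1, 2), (2, 3), (2, 6), (3, 4), (4, 5), (6, 7), (4, 8)],
      Abelianization.of (sh e.1) = Abelianization.of (sh e.2) := by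
    intro e he
    have hlt : e.1 < 9 ∧ e.2 < 9 := by
      revert e; decide
    exact ab_eq (sh_inv _ hlt.1) (sh_inv _ hlt.2) (sh_braid e he)
  have a12 := ab (1, 2) (by simp)
  have a23 := ab (2, 3) (by simp)
  have a26 := ab (2, 6) (by simp)
  have a34 := ab (3, 4) (by simp)
  have a45 := ab (4, 5) (by simp)
  have a67 := ab (6, 7) (by simp)
  have a48 := ab (4, 8) (by simp)
  simp only at a12 a23 a26 a34 a45 a67 a48
  have hx := congrArg Abelianization.of (sh_inv 1 (by decide))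
  have hr := congrArg Abelianization.of sh_e7
  have hy := congrArg Abelianization.of sh_y
  rw [wp_flatten_replicate] at hr
  rw [wp_append, wp_flatten_replicate] at hy
  simp only [wp_cons, wp_nil, mul_one, map_pow, map_mul, map_one] at hr hx hy
  rw [← a48, ← a67, ← a34, ← a26, ← a23, ← a12] at hy
  rw [← a67, ← a45, ← a34, ← a26, ← a23, ← a12] at hr
  have h1 : Abelianization.of (sh 1) = 1 := by
    generalize Abelianization.of (sh 1) = x at hr hx
    have h2 : x ^ 2 = 1 := by rw [pow_two]; exact hx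
    have h63 : x ^ 63 = 1 := by
      have e7 : x * (x * (x * (x * (x * (x * x))))) = x ^ 7 := by
        simp only [pow_succ, pow_zero, one_mul, mul_assoc]
      rw [e7, ← pow_mul] at hr
      exact hr
    calc x = x ^ 63 * ((x ^ 2) ^ 31)⁻¹ := by group
      _ = 1 := by rw [h63, h2]; simp
  rw [h1] at hy
  have h0 : Abelianization.of (sh 0) = 1 := by simpa using hy
  apply perfect_of_ab (pre_sH_top F22.s F22P3510.Sw)
  intro k hk
  have hk9 : k < 9 := hk
  interval_cases k
  · exact h0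
  · exact h1
  · rw [← a12, h1]
  · rw [← a23, ← a12, h1]
  · rw [← a34, ← a23, ← a12, h1]
  · rw [← a45, ← a34, ← a23, ← a12, h1]
  · rw [← a26, ← a12, h1]
  · rw [← a67, ← a26, ← a12, h1]
  · rw [← a48, ← a34, ← a23, ← a12, h1]

/-- the centraliser of `a` in Fi22 is a non-split double cover of `PSU(6, 2)` -/
theorem main : Cfsg.IsNonsplitDoubleCover F22M.H T := by
  obtain ⟨Φ, hs, hk⟩ := exists_Phi
  exact nonsplit_of_surj Φ hs hk center_T perfect_H

end Cfsg.Agent.Lib.Helper40.U6
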